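import Mathlib
import Cfsg.Agent.Lib.Helper83.MinSU.DefsO
import Cfsg.Agent.Lib.Helper5.GUOrder

set_option autoImplicit false

/-! helper83's farm S2151, piece oZT0: fixed point free elements of order 3 of `SU_m(2)` -/

namespace Cfsg.Agent.Lib.Helper84.MinSU.O

open Matrix Cfsg.Agent.Lib.Helper13 Cfsg.Agent.Lib.Helper5 Cfsg.Agent.Lib.Helper57.RootSU
  Cfsg.Agent.Lib.Helper83.MinSU

variable {F : Type*} [Field F] [Fintype F] {q m n : ℕ}

theorem oZT0_omega (hF : Fintype.card F = 2 ^ 2) : ∃ om : F, om ≠ 0 ∧ om ≠ 1 ∧ om ^ 3 = 1 := by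
  classical
  have h3 : Fintype.card Fˣ = 3 := by rw [Fintype.card_units, hF]; norm_num
  have : Nontrivial Fˣ := Fintype.one_lt_card_iff_nontrivial.1 (by rw [h3]; norm_num)
  obtain ⟨a, ha⟩ := exists_ne (1 : Fˣ)
  refine ⟨a, a.ne_zero, fun h => ha (Units.ext h), ?_⟩
  have := pow_card_eq_one (x := a)
  rw [h3] at this
  have h2 := congrArg Units.val this
  simpa using h2

theorem oZT0_two (hF : Fintype.card F = 2 ^ 2) : (2 : F) = 0 := by
  have h := Nat.cast_card_eq_zero F
  rw [hF] at h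
  have h4 : (2 : F) ^ 2 = 0 := by
    have : ((2 ^ 2 : ℕ) : F) = (2 : F) ^ 2 := by norm_num
    rw [← this]; exact h
  exact pow_eq_zero_iff (two_ne_zero) |>.1 h4

theorem oZT0_one_skew (hF : Fintype.card F = 2 ^ 2) : (1 : F) + 1 ^ 2 = 0 := by
  rw [one_pow, one_add_one_eq_two, oZT0_two hF]

omit [Fintype F] in
/-- a diagonal element of order 3 -/
theorem oZT0_diag (d : Fin m → F) (hd : ∀ i, d i ^ 3 = 1) (hdet : (Matrix.diagonal d).det = 1) :
    ∃ z : Cfsg.SU m F 2, z.1.1 = Matrix.diagonal d ∧ z ^ 3 = 1 := by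
  refine ⟨mkSU (Matrix.diagonal d) hdet (diagonal_preserves d hd), rfl, ?_⟩
  apply SU_ext
  rw [SubgroupClass.coe_pow, Matrix.SpecialLinearGroup.coe_pow]
  show (Matrix.diagonal d) ^ 3 = (1 : Matrix (Fin m) (Fin m) F)
  rw [Matrix.diagonal_pow, ← Matrix.diagonal_one]
  congr 1
  funext i
  exact hd i

/-- an eigenvector for `om` gives a commuting transvection -/
theorem oZT0_comm (hF : Fintype.card F = 2 ^ 2) (z : Cfsg.SU m F 2) (om : F) (hom : om ^ 3 = 1)
    (w : Fin m → F) (hzw : z.1.1 *ᵥ w = om • w) (hw : Cfsg.hermForm m F 2 w w = 0) :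
    ut hF w 1 * z = z * ut hF w 1 := by
  apply SU_ext_mulVec
  intro x
  rw [SU_mul_mulVec, SU_mul_mulVec, ut_mulVec hF hw (oZT0_one_skew hF),
    ut_mulVec hF hw (oZT0_one_skew hF), mulVec_add, mulVec_smul, hzw]
  have h1 : w = om ^ 2 • (z.1.1 *ᵥ w) := by
    rw [hzw, smul_smul, ← pow_succ, hom, one_smul]
  have h2 : Cfsg.hermForm m F 2 (z.1.1 *ᵥ x) w = om * Cfsg.hermForm m F 2 x w := by
    conv_lhs => rw [h1]
    rw [hermForm_smul_right, SU_preserves]
    congr 1
    calc (om ^ 2) ^ 2 = om ^ 3 * om := by ring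
      _ = om := by rw [hom, one_mul]
  rw [h2, smul_smul]
  congr 2
  ring

/-- [oZT0] -/
theorem exists_z3 (hF : Fintype.card F = 2 ^ 2) :
    ∃ z : Cfsg.SU 3 F 2, z ^ 3 = 1 ∧ (∀ w : Fin 3 → F, z.1.1 *ᵥ w = w → w = 0) ∧
      (∀ l : Cfsg.SU 3 F 2, l * z = z * l) ∧
      ∃ om : F, om ≠ 0 ∧ om ≠ 1 ∧ ∀ w : Fin 3 → F, z.1.1 *ᵥ w = om • w := by
  obtain ⟨om, hom0, hom1, hom3⟩ := oZT0_omega hF
  obtain ⟨z, hz, hz3⟩ := oZT0_diag (m := 3) (fun _ => om) (fun _ => hom3) (by
    rw [Matrix.det_diagonal]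
    simp [hom3])
  have hzw : ∀ w : Fin 3 → F, z.1.1 *ᵥ w = om • w := by
    intro w
    rw [hz]
    funext i
    rw [Matrix.mulVec_diagonal]
    rfl
  refine ⟨z, hz3, ?_, ?_, om, hom0, hom1, hzw⟩
  · intro w hw
    rw [hzw] at hw
    have h1 : (om - 1) • w = 0 := by rw [sub_smul, one_smul, hw, sub_self]
    exact (smul_eq_zero.1 h1).resolve_left (sub_ne_zero.2 hom1)
  · intro l
    apply SU_ext_mulVec
    intro x
    rw [SU_mul_mulVec, SU_mul_mulVec, hzw, hzw, mulVec_smul]

/-- [oZT0] -/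
theorem exists_z (hF : Fintype.card F = 2 ^ 2) (hm : 5 ≤ m) :
    ∃ (z : Cfsg.SU m F 2) (E : Submodule F (Fin m → F)), z ^ 3 = 1 ∧
      (∀ w : Fin m → F, z.1.1 *ᵥ w = w → w = 0) ∧ Nondeg 2 E ∧ 4 ≤ Module.finrank F E ∧
      ∀ w ∈ E, Cfsg.hermForm m F 2 w w = 0 → ut hF w 1 * z = z * ut hF w 1 := by
  classical
  obtain ⟨om, hom0, hom1, hom3⟩ := oZT0_omega hF
  have hom2 : om * om ≠ 1 := by
    intro h
    apply hom1
    calc om = om ^ 3 * om⁻¹ * om⁻¹ := by field_simp
      _ = (om * om)⁻¹ := by rw [hom3, one_mul, mul_inv]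
      _ = 1 := by rw [h, inv_one]
  have hpow : ∀ k : ℕ, om ^ (3 * k) = 1 := fun k => by rw [pow_mul, hom3, one_pow]
  -- the two corrections
  obtain ⟨a, b, ha, hb, hab, hb6⟩ : ∃ a b : F, (a = 1 ∨ a = om) ∧ (b = 1 ∨ b = om) ∧
      om ^ m * a * b = 1 ∧ (b ≠ 1 → 6 ≤ m) := by
    obtain ⟨k, hk⟩ : ∃ k, m = 3 * k ∨ m = 3 * k + 1 ∨ m = 3 * k + 2 := ⟨m / 3, by omega⟩
    rcases hk with hk | hk | hk
    · exact ⟨1, 1, Or.inl rfl, Or.inl rfl, by rw [hk, hpow]; simp, fun h => absurd rfl h⟩
    · refine ⟨om, om, Or.inr rfl, Or.inr rfl, ?_, fun _ => by omega⟩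
      rw [hk, pow_succ, hpow, one_mul, ← pow_two, ← pow_succ, hom3]
    · refine ⟨om, 1, Or.inr rfl, Or.inl rfl, ?_, fun h => absurd rfl h⟩
      rw [hk, pow_add, hpow, one_mul, mul_one, ← pow_succ, hom3]
  let i0 : Fin m := ⟨0, by omega⟩
  let i1 : Fin m := ⟨1, by omega⟩
  have hi01 : i0 ≠ i1 := by
    intro h
    have := congrArg Fin.val h
    simp [i0, i1] at this
  let d : Fin m → F := fun i => om * (if i = i0 then a else 1) * (if i = i1 then b else 1)
  have ha3 : a ^ 3 = 1 := by rcases ha with rfl | rfl <;> simp [hom3]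
  have hb3 : b ^ 3 = 1 := by rcases hb with rfl | rfl <;> simp [hom3]
  have hd3 : ∀ i, d i ^ 3 = 1 := by
    intro i
    simp only [d]
    split_ifs <;> simp [mul_pow, hom3, ha3, hb3]
  have hd1 : ∀ i, d i ≠ 1 := by
    intro i
    simp only [d]
    by_cases h0 : i = i0
    · have h1 : i ≠ i1 := fun h => hi01 (h0.symm.trans h)
      rw [if_pos h0, if_neg h1, mul_one]
      rcases ha with rfl | rfl
      · rwa [mul_one]
      · exact hom2
    · rw [if_neg h0, mul_one]
      by_cases h1 : i = i1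
      · rw [if_pos h1]
        rcases hb with rfl | rfl
        · rwa [mul_one]
        · exact hom2
      · rwa [if_neg h1, mul_one]
  have hdet : (Matrix.diagonal d).det = 1 := by
    rw [Matrix.det_diagonal, Finset.prod_mul_distrib, Finset.prod_mul_distrib,
      Finset.prod_ite_eq', Finset.prod_ite_eq', Finset.prod_const]
    simpa using hab
  obtain ⟨z, hz, hz3⟩ := oZT0_diag d hd3 hdet
  let E : Submodule F (Fin m → F) :=
    { carrier := {w | ∀ i : Fin m, i.val + 4 < m → w i = 0}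
      add_mem' := by
        intro u v hu hv i hi
        rw [Pi.add_apply, hu i hi, hv i hi, add_zero]
      zero_mem' := fun i _ => rfl
      smul_mem' := by
        intro c u hu i hi
        rw [Pi.smul_apply, hu i hi, smul_zero] }
  have hsingle : ∀ i : Fin m, ¬ (i.val + 4 < m) → (Pi.single i 1 : Fin m → F) ∈ E := by
    intro i hi j hj
    have : j ≠ i := by
      rintro rfl
      exact hi hj
    rw [Pi.single_eq_of_ne this]
  refine ⟨z, E, hz3, ?_, ?_, ?_, ?_⟩
  · intro w hw
    funext i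
    have h1 := congrFun hw i
    rw [hz, Matrix.mulVec_diagonal] at h1
    have h2 : (d i - 1) * w i = 0 := by rw [sub_mul, one_mul, h1, sub_self]
    exact (mul_eq_zero.1 h2).resolve_left (sub_ne_zero.2 (hd1 i))
  · intro u hu h
    funext i
    by_cases hi : i.val + 4 < m
    · exact hu i hi
    · have := h _ (hsingle i hi)
      rwa [hermForm_single_right (by norm_num)] at this
  · let j : Fin 4 → Fin m := fun t => ⟨m - 4 + t.val, by have := t.2; omega⟩
    have hj : Function.Injective j := by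
      intro s t hst
      have := congrArg Fin.val hst
      simp only [j] at this
      exact Fin.ext (by omega)
    have hli : LinearIndependent F (fun t : Fin 4 => (Pi.single (j t) 1 : Fin m → F)) := by
      have := (Pi.basisFun F (Fin m)).linearIndependent.comp j hj
      convert this using 1
      funext t
      simp [Function.comp]
    have hli' : LinearIndependent F (fun t : Fin 4 =>
        (⟨Pi.single (j t) 1, hsingle (j t) (by simp only [j]; omega)⟩ : E)) := by
      apply LinearIndependent.of_comp E.subtype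
      exact hli
    have := hli'.fintype_card_le_finrank
    simpa using this
  · intro w hw hww
    apply oZT0_comm hF z om hom3 w _ hww
    rw [hz]
    funext i
    rw [Matrix.mulVec_diagonal, Pi.smul_apply, smul_eq_mul]
    by_cases hi : i.val + 4 < m
    · rw [hw i hi, mul_zero, mul_zero]
    · congr 1
      have h0 : i ≠ i0 := by
        intro h
        have := congrArg Fin.val h
        simp only [i0] at this
        omega
      simp only [d]
      rw [if_neg h0, mul_one]
      by_cases h1 : i = i1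
      · have hb1 : b = 1 := by
          by_contra hb1
          have h6 := hb6 hb1
          have := congrArg Fin.val h1
          simp only [i1] at this
          omega
        rw [if_pos h1, hb1, mul_one]
      · rw [if_neg h1, mul_one]

end Cfsg.Agent.Lib.Helper84.MinSU.O
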