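import Mathlib

set_option autoImplicit false

/-! helper83's farm S2151, piece oE2: the abstract counting argument for `SU_5(2)` -/

namespace Cfsg.Agent.Lib.Helper84.MinSU.O

/-- [oE2] -/
theorem count_abs {G Ω : Type*} [Group G] [Finite G] [Finite Ω] [MulAction G Ω] (Pp : Set Ω)
    (perp : Ω → Ω → Prop) (hsymm : ∀ x y, perp x y → perp y x)
    (hinv : ∀ (g : G) (x : Ω), x ∈ Pp ↔ g • x ∈ Pp) (hΩ : Nat.card Ω = 495)
    (hN : ∃ x, x ∉ Pp) (hst : ∀ x, x ∉ Pp → Nat.card (MulAction.stabilizer G x) = 216)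
    (h27 : ∀ x, x ∉ Pp → Nat.card {u : Ω // u ∈ Pp ∧ perp u x} = 27)
    (h108 : ∀ u, u ∈ Pp → Nat.card {x : Ω // x ∉ Pp ∧ perp x u} ≤ 108)
    (hdvd : Nat.card G ∣ 13685760) (hbig : 82944 < Nat.card G) :
    Nat.card G = 85536 ∧ Nat.card Pp = 99 ∧
      ∀ u, u ∈ Pp → Nat.card {x : Ω // x ∉ Pp ∧ perp x u} = 108 := by
  classical
  have : Fintype Ω := Fintype.ofFinite Ω
  obtain ⟨x₀, hx₀⟩ := hN
  -- orbits
  have hO : ∀ x, x ∉ Pp → 216 * (MulAction.orbit G x).ncard = Nat.card G := by
    intro x hx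
    rw [← MulAction.index_stabilizer, ← hst x hx]
    exact Subgroup.card_mul_index _
  have hsub : ∀ x, x ∉ Pp → MulAction.orbit G x ⊆ Ppᶜ := by
    rintro x hx _ ⟨g, rfl⟩
    exact fun h => hx ((hinv g x).2 h)
  have htot : Pp.ncard + Ppᶜ.ncard = 495 := by
    rw [Set.ncard_add_ncard_compl, hΩ]
  have horb : Ppᶜ = MulAction.orbit G x₀ := by
    apply Set.Subset.antisymm _ (hsub x₀ hx₀)
    intro y hy
    by_contra hcon
    have hd : Disjoint (MulAction.orbit G x₀) (MulAction.orbit G y) := by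
      rcases MulAction.orbit.eq_or_disjoint (G := G) x₀ y with h | h
      · exact absurd (h ▸ MulAction.mem_orbit_self y) hcon
      · exact h
    have h1 := Set.ncard_union_eq hd (Set.toFinite _) (Set.toFinite _)
    have h2 : (MulAction.orbit G x₀ ∪ MulAction.orbit G y).ncard ≤ Ppᶜ.ncard :=
      Set.ncard_le_ncard (Set.union_subset (hsub x₀ hx₀) (hsub y hy)) (Set.toFinite _)
    have h3 := hO x₀ hx₀
    have h4 := hO y hy
    omega
  set o := Ppᶜ.ncard with ho
  have hoG : 216 * o = Nat.card G := by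
    rw [ho, horb]
    exact hO x₀ hx₀
  -- finsets
  have hNc : (Finset.univ.filter (fun x : Ω => x ∉ Pp)).card = o := by
    rw [ho, ← Set.ncard_coe_finset]
    congr 1
    ext x
    simp
  have hPc : (Finset.univ.filter (fun x : Ω => x ∈ Pp)).card = Pp.ncard := by
    rw [← Set.ncard_coe_finset]
    congr 1
    ext x
    simp
  have e1 : ∀ x, Nat.card {u : Ω // u ∈ Pp ∧ perp u x}
      = ((Finset.univ.filter (fun x : Ω => x ∈ Pp)).bipartiteAbove (fun x u => perp u x) x).card := by
    intro x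
    rw [Nat.card_eq_fintype_card, Fintype.card_subtype, Finset.bipartiteAbove, Finset.filter_filter]
  have e2 : ∀ u, Nat.card {x : Ω // x ∉ Pp ∧ perp x u}
      = ((Finset.univ.filter (fun x : Ω => x ∉ Pp)).bipartiteBelow (fun x u => perp u x) u).card := by
    intro u
    rw [Nat.card_eq_fintype_card, Fintype.card_subtype, Finset.bipartiteBelow, Finset.filter_filter]
    congr 1
    apply Finset.filter_congr
    intro x _
    exact and_congr_right fun _ => ⟨hsymm x u, hsymm u x⟩
  have hdc := Finset.sum_card_bipartiteAbove_eq_sum_card_bipartiteBelow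
    (s := Finset.univ.filter (fun x : Ω => x ∉ Pp)) (t := Finset.univ.filter (fun x : Ω => x ∈ Pp))
    (fun x u => perp u x)
  have hl : ∑ x ∈ Finset.univ.filter (fun x : Ω => x ∉ Pp),
      ((Finset.univ.filter (fun x : Ω => x ∈ Pp)).bipartiteAbove (fun x u => perp u x) x).card
      = o * 27 := by
    rw [← hNc, ← smul_eq_mul, ← Finset.sum_const]
    apply Finset.sum_congr rfl
    intro x hx
    rw [← e1, h27 x (Finset.mem_filter.1 hx).2]
  have hr : ∑ u ∈ Finset.univ.filter (fun x : Ω => x ∈ Pp),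
      ((Finset.univ.filter (fun x : Ω => x ∉ Pp)).bipartiteBelow (fun x u => perp u x) u).card
      ≤ Pp.ncard * 108 := by
    rw [← hPc, ← smul_eq_mul, ← Finset.sum_const]
    apply Finset.sum_le_sum
    intro u hu
    rw [← e2]
    exact h108 u (Finset.mem_filter.1 hu).2
  have ho1 : 385 ≤ o := by omega
  have ho2 : o ≤ 396 := by
    rw [hl] at hdc
    omega
  have ho3 : o ∣ 63360 := by
    rw [← hoG, show 13685760 = 216 * 63360 by norm_num] at hdvd
    exact Nat.dvd_of_mul_dvd_mul_left (by norm_num) hdvd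
  have ho4 : o = 396 := by
    clear_value o
    interval_cases o <;> first | rfl | (exfalso; revert ho3; decide)
  have hP99 : Pp.ncard = 99 := by omega
  refine ⟨by omega, by rw [Nat.card_coe_set_eq]; exact hP99, ?_⟩
  have hsum : ∑ u ∈ Finset.univ.filter (fun x : Ω => x ∈ Pp),
      ((Finset.univ.filter (fun x : Ω => x ∉ Pp)).bipartiteBelow (fun x u => perp u x) u).card
      = ∑ u ∈ Finset.univ.filter (fun x : Ω => x ∈ Pp), 108 := by
    rw [← hdc, hl, Finset.sum_const, hPc, hP99, ho4]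
    rfl
  have hall := (Finset.sum_eq_sum_iff_of_le (fun u hu => by
    rw [← e2]
    exact h108 u (Finset.mem_filter.1 hu).2)).1 hsum
  intro u hu
  rw [e2]
  exact hall u (Finset.mem_filter.2 ⟨Finset.mem_univ _, hu⟩)

end Cfsg.Agent.Lib.Helper84.MinSU.O
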