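import Mathlib
import Cfsg.Agent.Lib.Helper83.MinSU.DefsO
import Cfsg.Agent.Lib.Helper5.SUPerfect
import Cfsg.Agent.S0780
import Cfsg.Agent.S0278
import Cfsg.Agent.S0285
import Cfsg.Agent.Lib.Helper8.MinSU.U1i
import Cfsg.Agent.Lib.Helper84.MinSU.oE2
import Cfsg.Agent.Lib.Helper84.MinSU.oZT0

set_option autoImplicit false

/-! helper83's farm S2151, piece oEND in hypothesis form: the minimal index of `SU_5(2)` -/

namespace Cfsg.Agent.Lib.Helper84.MinSU.O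

open Matrix Cfsg.Agent.Lib.Helper13 Cfsg.Agent.Lib.Helper5 Cfsg.Agent.Lib.Helper57.RootSU
  Cfsg.Agent.Lib.Helper83.MinSU
open Cfsg.Agent.Lib.Helper8.MinSU (rs_inv)

variable {F : Type*} [Field F] [Fintype F]

/-- the nonzero isotropic vectors -/
abbrev Iso5 (F : Type*) [Field F] := {x : Fin 5 → F // x ≠ 0 ∧ Cfsg.hermForm 5 F 2 x x = 0}

omit [Fintype F] in
theorem oEND_ne (k : Cfsg.SU 5 F 2) {x : Fin 5 → F} (hx : x ≠ 0) : k.1.1 *ᵥ x ≠ 0 := by
  intro h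
  apply hx
  rw [← SU_inv_mulVec_mulVec k x, h, mulVec_zero]

instance oEND_act (K : Subgroup (Cfsg.SU 5 F 2)) : MulAction K (Iso5 F) where
  smul k x := ⟨(k : Cfsg.SU 5 F 2).1.1 *ᵥ x.1, oEND_ne _ x.2.1, by rw [SU_preserves]; exact x.2.2⟩
  one_smul x := Subtype.ext (SU_one_mulVec x.1)
  mul_smul a b x := Subtype.ext (SU_mul_mulVec _ _ x.1)

omit [Fintype F] in
theorem oEND_smul (K : Subgroup (Cfsg.SU 5 F 2)) (k : K) (x : Iso5 F) :
    (k • x).1 = (k : Cfsg.SU 5 F 2).1.1 *ᵥ x.1 := rfl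

theorem oEND_card_iso (hF : Fintype.card F = 2 ^ 2) : Nat.card (Iso5 F) = 495 := by
  have h := Cfsg.Agent.S0285.result hF 5
  rw [if_neg (by decide)] at h
  have h1 : ({v : Fin 5 → F | Cfsg.hermForm 5 F 2 v v = 0}).ncard = 496 := by
    rw [← Nat.card_coe_set_eq]
    exact h
  have h2 : ({x : Fin 5 → F | x ≠ 0 ∧ Cfsg.hermForm 5 F 2 x x = 0})
      = {v : Fin 5 → F | Cfsg.hermForm 5 F 2 v v = 0} \ {0} := by
    ext x
    simp only [Set.mem_ofPred_eq, Set.mem_sdiff, Set.mem_singleton_iff]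
    tauto
  have h3 : Nat.card (Iso5 F) = ({x : Fin 5 → F | x ≠ 0 ∧ Cfsg.hermForm 5 F 2 x x = 0}).ncard :=
    Nat.card_coe_set_eq _
  have h0 : (0 : Fin 5 → F) ∈ {v : Fin 5 → F | Cfsg.hermForm 5 F 2 v v = 0} :=
    hermForm_zero_left 0
  rw [h3, h2, Set.ncard_sdiff_singleton_of_mem h0, h1]

theorem oEND_card_SU (hF : Fintype.card F = 2 ^ 2) : Nat.card (Cfsg.SU 5 F 2) = 13685760 := by
  have h := Cfsg.Agent.S0278.result hF 5 (by norm_num)
  have h2 : (∏ i ∈ Finset.range 5, (if Even i then 2 ^ (i + 1) + 1 else 2 ^ (i + 1) - 1) : ℕ)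
      = 40095 := by decide
  rw [h2] at h
  omega

theorem oEND_top (hF : Fintype.card F = 2 ^ 2) (K : Subgroup (Cfsg.SU 5 F 2))
    (h : ∀ v : Fin 5 → F, Cfsg.hermForm 5 F 2 v v = 0 → v ∈ RS hF K) : K = ⊤ := by
  rw [eq_top_iff, ← Cfsg.Agent.S0780.result hF 5 (by norm_num) (by omega), Subgroup.closure_le]
  rintro A ⟨v, c, hv, hA⟩
  by_cases hv0 : v = 0
  · have : A = 1 := by
      apply SU_ext_mulVec
      intro x
      rw [hA, unitaryTransvection_mulVec, hv0, SU_one_mulVec]; simp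
    rw [this]
    exact K.one_mem
  · have hc := skew_of_ut_mem hF A hv0 hv hA
    have : A = ut hF v c := by
      apply SU_ext_mulVec
      intro x
      rw [hA, unitaryTransvection_mulVec, ut_mulVec hF hv hc]
    rw [this]
    exact (h v hv).2 c hc

/-- an isotropic vector outside `RS` has `ut v 1 ∉ K` -/
theorem oEND_bad (hF : Fintype.card F = 2 ^ 2) (K : Subgroup (Cfsg.SU 5 F 2)) {v : Fin 5 → F}
    (hvv : Cfsg.hermForm 5 F 2 v v = 0) (hv : v ∉ RS hF K) : ut hF v 1 ∉ K := by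
  intro h1
  apply hv
  refine ⟨hvv, fun c hc => ?_⟩
  have hc' : c * (1 + c) = 0 := by linear_combination hc
  rcases mul_eq_zero.1 hc' with h0 | h0
  · rw [h0, ut_zero hF hvv]
    exact K.one_mem
  · have h2 := oZT0_two hF
    have : c = 1 := by linear_combination h0 - h2
    rw [this]
    exact h1

/-- [oEND], with the four other `SU_5(2)` pieces as hypotheses -/
theorem end5_of (hF : Fintype.card F = 2 ^ 2)
    (hE1a : ∀ K : Subgroup (Cfsg.SU 5 F 2), K.index < 165 → ∀ v : Fin 5 → F, v ≠ 0 →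
      Cfsg.hermForm 5 F 2 v v = 0 → ut hF v 1 ∉ K →
      Nat.card {k : K // (k : Cfsg.SU 5 F 2).1.1 *ᵥ v = v} = 216)
    (hE1b : ∀ K : Subgroup (Cfsg.SU 5 F 2), K.index < 165 → ∀ v : Fin 5 → F, v ≠ 0 →
      Cfsg.hermForm 5 F 2 v v = 0 → ut hF v 1 ∉ K →
      Nat.card {u : Fin 5 → F // u ≠ 0 ∧ u ∈ RS hF K ∧ Cfsg.hermForm 5 F 2 u v = 0} = 27)
    (hE1c : ∀ u : Fin 5 → F, u ≠ 0 → Cfsg.hermForm 5 F 2 u u = 0 →
      Nat.card {x : Fin 5 → F // x ≠ 0 ∧ Cfsg.hermForm 5 F 2 x x = 0 ∧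
        Cfsg.hermForm 5 F 2 x u = 0 ∧ ¬ ∃ c : F, x = c • u} = 108)
    (hE3 : ∀ K : Subgroup (Cfsg.SU 5 F 2), Nat.card K = 85536 →
      Nat.card {u : Fin 5 → F // u ≠ 0 ∧ u ∈ RS hF K} = 99 →
      (∀ u u' : Fin 5 → F, u ≠ 0 → u ∈ RS hF K → u' ∈ RS hF K →
        Cfsg.hermForm 5 F 2 u' u = 0 → ∃ c : F, u' = c • u) → False)
    (K : Subgroup (Cfsg.SU 5 F 2)) (hK : K ≠ ⊤) : 165 ≤ K.index := by
  classical
  by_contra hlt
  push Not at hlt
  have hcard := oEND_card_SU hF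
  have hKi : Nat.card K * K.index = 13685760 := by rw [Subgroup.card_mul_index, hcard]
  have hbig : 82944 < Nat.card K := by
    by_contra hcon
    push Not at hcon
    have : Nat.card K * K.index ≤ 82944 * 164 := Nat.mul_le_mul hcon (by omega)
    omega
  have hdvd : Nat.card K ∣ 13685760 := ⟨K.index, hKi.symm⟩
  let Pp : Set (Iso5 F) := {x | x.1 ∈ RS hF K}
  let perp : Iso5 F → Iso5 F → Prop := fun x y => Cfsg.hermForm 5 F 2 x.1 y.1 = 0
  have hN : ∃ x : Iso5 F, x ∉ Pp := by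
    by_contra hcon
    push Not at hcon
    apply hK
    apply oEND_top hF
    intro v hv
    by_cases hv0 : v = 0
    · subst hv0
      refine ⟨hv, fun c hc => ?_⟩
      have : ut hF (0 : Fin 5 → F) c = 1 := by
        apply SU_ext_mulVec
        intro x
        rw [ut_mulVec hF hv hc, SU_one_mulVec]
        simp
      rw [this]
      exact K.one_mem
    · exact hcon ⟨v, hv0, hv⟩
  have hinv : ∀ (g : K) (x : Iso5 F), x ∈ Pp ↔ g • x ∈ Pp := by
    intro g x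
    constructor
    · intro hx
      exact (rs_inv hF K x.1 hx).1 g g.2
    · intro hx
      have := (rs_inv hF K _ hx).1 (g⁻¹ : K) (g⁻¹ : K).2
      rw [oEND_smul] at this
      have e : ((g⁻¹ : K) : Cfsg.SU 5 F 2) = (g : Cfsg.SU 5 F 2)⁻¹ := rfl
      rw [e, SU_inv_mulVec_mulVec] at this
      exact this
  have hst : ∀ x : Iso5 F, x ∉ Pp → Nat.card (MulAction.stabilizer K x) = 216 := by
    intro x hx
    rw [← hE1a K hlt x.1 x.2.1 x.2.2 (oEND_bad hF K x.2.2 hx)]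
    apply Nat.card_congr
    apply Equiv.subtypeEquivRight
    intro k
    rw [MulAction.mem_stabilizer_iff, Subtype.ext_iff, oEND_smul]
  have h27 : ∀ x : Iso5 F, x ∉ Pp → Nat.card {u : Iso5 F // u ∈ Pp ∧ perp u x} = 27 := by
    intro x hx
    rw [← hE1b K hlt x.1 x.2.1 x.2.2 (oEND_bad hF K x.2.2 hx)]
    exact Nat.card_congr
      { toFun := fun u => ⟨u.1.1, u.1.2.1, u.2.1, u.2.2⟩
        invFun := fun u => ⟨⟨u.1, u.2.1, u.2.2.1.1⟩, u.2.2.1, u.2.2.2⟩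
        left_inv := fun u => rfl
        right_inv := fun u => rfl }
  -- the injection for `h108`
  let inj : ∀ u : Iso5 F, u ∈ Pp → {x : Iso5 F // x ∉ Pp ∧ perp x u} →
      {x : Fin 5 → F // x ≠ 0 ∧ Cfsg.hermForm 5 F 2 x x = 0 ∧
        Cfsg.hermForm 5 F 2 x u.1 = 0 ∧ ¬ ∃ c : F, x = c • u.1} :=
    fun u hu x => ⟨x.1.1, x.1.2.1, x.1.2.2, x.2.2, fun ⟨c, hc⟩ => x.2.1 (by
      show x.1.1 ∈ RS hF K
      rw [hc]
      exact (rs_inv hF K u.1 hu).2 c)⟩
  have hinj : ∀ (u : Iso5 F) (hu : u ∈ Pp), Function.Injective (inj u hu) := by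
    intro u hu x y hxy
    apply Subtype.ext
    apply Subtype.ext
    have h1 : (inj u hu x).1 = (inj u hu y).1 := congrArg Subtype.val hxy
    exact h1
  have h108 : ∀ u : Iso5 F, u ∈ Pp → Nat.card {x : Iso5 F // x ∉ Pp ∧ perp x u} ≤ 108 := by
    intro u hu
    rw [← hE1c u.1 u.2.1 u.2.2]
    exact Nat.card_le_card_of_injective _ (hinj u hu)
  obtain ⟨hK1, hP1, hall⟩ := count_abs (G := K) Pp perp
    (fun x y h => hermForm_eq_zero_comm hF h) hinv (oEND_card_iso hF) hN hst h27 h108 hdvd hbig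
  apply hE3 K hK1
  · rw [← hP1]
    exact Nat.card_congr
      { toFun := fun u => ⟨⟨u.1, u.2.1, u.2.2.1⟩, u.2.2⟩
        invFun := fun u => ⟨u.1.1, u.1.2.1, u.2⟩
        left_inv := fun u => rfl
        right_inv := fun u => rfl }
  · intro u u' hu0 hu hu' hperp
    by_contra hcon
    have hu'0 : u' ≠ 0 := by
      rintro rfl
      exact hcon ⟨0, by simp⟩
    have huP : (⟨u, hu0, hu.1⟩ : Iso5 F) ∈ Pp := hu
    have hbij := (hinj _ huP).bijective_of_nat_card_le (by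
      rw [hall _ huP, hE1c u hu0 hu.1])
    obtain ⟨x, hx⟩ := hbij.2 ⟨u', hu'0, hu'.1, hperp, hcon⟩
    apply x.2.1
    show x.1.1 ∈ RS hF K
    have : x.1.1 = u' := congrArg Subtype.val hx
    rw [this]
    exact hu'

end Cfsg.Agent.Lib.Helper84.MinSU.O
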