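import Mathlib
import Cfsg.Agent.Lib.Helper83.MinSU.DefsO
import Cfsg.Agent.Lib.Helper84.MinSU.oZT0

set_option autoImplicit false

/-! helper83's farm S2151, piece oE3: no 26 pairwise non-orthogonal isotropic vectors in the
unitary space `F_4^5` (rank bound), hence no "ovoid" of 33 points. -/

namespace Cfsg.Agent.Lib.Helper84.MinSU.O

open Matrix Cfsg.Agent.Lib.Helper13 Cfsg.Agent.Lib.Helper5 Cfsg.Agent.Lib.Helper57.RootSU
  Cfsg.Agent.Lib.Helper83.MinSU

variable {F : Type*} [Field F] [Fintype F]

/-- the rank bound -/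
theorem oE3_rank (hF : Fintype.card F = 2 ^ 2) (u : Fin 26 → (Fin 5 → F))
    (h0 : ∀ i, Cfsg.hermForm 5 F 2 (u i) (u i) = 0)
    (h1 : ∀ i j, i ≠ j → Cfsg.hermForm 5 F 2 (u i) (u j) ≠ 0) : False := by
  classical
  have h2 := oZT0_two hF
  let T : Fin 26 → (Fin 5 × Fin 5 → F) := fun i ab => u i ab.1 * (u i ab.2) ^ 2
  have hφ : ∀ i j, ∑ ab : Fin 5 × Fin 5, T i ab * ((u j ab.1) ^ 2 * u j ab.2)
      = if i = j then 0 else 1 := by
    intro i j
    have e1 : ∑ ab : Fin 5 × Fin 5, T i ab * ((u j ab.1) ^ 2 * u j ab.2)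
        = Cfsg.hermForm 5 F 2 (u i) (u j) * Cfsg.hermForm 5 F 2 (u j) (u i) := by
      unfold Cfsg.hermForm
      rw [Finset.sum_mul_sum, Fintype.sum_prod_type]
      refine Finset.sum_congr rfl fun a _ => Finset.sum_congr rfl fun b _ => ?_
      simp only [T]
      ring
    rw [e1, ← hermForm_swap hF (u i) (u j), ← pow_succ']
    by_cases hij : i = j
    · subst hij
      rw [if_pos rfl, h0, zero_pow (by norm_num)]
    · rw [if_neg hij]
      have := FiniteField.pow_card_sub_one_eq_one _ (h1 i j hij)
      rw [hF] at this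
      exact this
  have hli : LinearIndependent F T := by
    rw [Fintype.linearIndependent_iff]
    intro c hc
    have key : ∀ j, ∑ i, c i = c j := by
      intro j
      have e2 : ∑ ab : Fin 5 × Fin 5, (∑ i, c i • T i) ab * ((u j ab.1) ^ 2 * u j ab.2) = 0 := by
        rw [hc]
        simp
      have e3 : ∑ ab : Fin 5 × Fin 5, (∑ i, c i • T i) ab * ((u j ab.1) ^ 2 * u j ab.2)
          = ∑ i, c i * (if i = j then 0 else 1) := by
        simp only [Finset.sum_apply, Pi.smul_apply, smul_eq_mul, Finset.sum_mul]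
        rw [Finset.sum_comm]
        refine Finset.sum_congr rfl fun i _ => ?_
        rw [← hφ i j, Finset.mul_sum]
        refine Finset.sum_congr rfl fun ab _ => ?_
        ring
      rw [e3] at e2
      have e4 : ∑ i, c i * (if i = j then (0 : F) else 1) = ∑ i, c i - c j := by
        have : ∀ i, c i * (if i = j then (0 : F) else 1) = c i - (if i = j then c i else 0) := by
          intro i
          split_ifs <;> simp
        simp only [this, Finset.sum_sub_distrib, Finset.sum_ite_eq', Finset.mem_univ, if_true]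
      rw [e4] at e2
      exact sub_eq_zero.1 e2
    have hσ : ∑ i, c i = 0 := by
      have e5 : ∑ j : Fin 26, c j = ∑ _j : Fin 26, ∑ i, c i :=
        Finset.sum_congr rfl fun j _ => (key j).symm
      rw [Finset.sum_const, Finset.card_univ, Fintype.card_fin] at e5
      rw [e5]
      have : (26 : ℕ) • (∑ i, c i) = (2 : F) * (13 * ∑ i, c i) := by
        rw [nsmul_eq_mul]
        push_cast
        ring
      rw [this, h2, zero_mul]
    intro j
    rw [← key j, hσ]
  have := hli.fintype_card_le_finrank
  simp at this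

/-- [oE3] -/
theorem ovoid_false (hF : Fintype.card F = 2 ^ 2) (K : Subgroup (Cfsg.SU 5 F 2))
    (hK : Nat.card K = 85536)
    (hP : Nat.card {u : Fin 5 → F // u ≠ 0 ∧ u ∈ RS hF K} = 99)
    (hperp : ∀ u u' : Fin 5 → F, u ≠ 0 → u ∈ RS hF K → u' ∈ RS hF K →
      Cfsg.hermForm 5 F 2 u' u = 0 → ∃ c : F, u' = c • u) : False := by
  classical
  let s : Finset (Fin 5 → F) := Finset.univ.filter (fun u => u ≠ 0 ∧ u ∈ RS hF K)
  have hs : s.card = 99 := by
    rw [← hP, Nat.card_eq_fintype_card, Fintype.card_subtype]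
  have hmem : ∀ x, x ∈ s ↔ (x ≠ 0 ∧ x ∈ RS hF K) := by
    intro x
    simp [s]
  let f : (Fin 5 → F) → Submodule F (Fin 5 → F) := fun x => Submodule.span F {x}
  have hfib : ∀ b ∈ s.image f, (s.filter (fun a => f a = b)).card ≤ 3 := by
    intro b hb
    obtain ⟨y, hy, rfl⟩ := Finset.mem_image.1 hb
    have hsub : s.filter (fun a => f a = f y) ⊆
        ((Finset.univ : Finset F).erase 0).image (fun c => c • y) := by
      intro x hx
      obtain ⟨hxs, hxy⟩ := Finset.mem_filter.1 hx
      have h1 : x ∈ Submodule.span F {y} := by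
        have : x ∈ f x := Submodule.mem_span_singleton_self x
        rw [hxy] at this
        exact this
      obtain ⟨c, rfl⟩ := Submodule.mem_span_singleton.1 h1
      refine Finset.mem_image.2 ⟨c, Finset.mem_erase.2 ⟨?_, Finset.mem_univ _⟩, rfl⟩
      rintro rfl
      exact ((hmem _).1 hxs).1 (zero_smul _ _)
    calc (s.filter (fun a => f a = f y)).card
        ≤ (((Finset.univ : Finset F).erase 0).image (fun c => c • y)).card :=
          Finset.card_le_card hsub
      _ ≤ ((Finset.univ : Finset F).erase 0).card := Finset.card_image_le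
      _ = 3 := by rw [Finset.card_erase_of_mem (Finset.mem_univ _), Finset.card_univ, hF]; norm_num
  have himg : 26 ≤ (s.image f).card := by
    have := Finset.card_le_mul_card_image s 3 hfib
    omega
  obtain ⟨t, ht, htc⟩ := Finset.exists_subset_card_eq himg
  have hch : ∀ p : t, ∃ x ∈ s, f x = p.1 := fun p => Finset.mem_image.1 (ht p.2)
  choose r hrs hrf using hch
  let e : Fin 26 ≃ t := (Finset.equivFinOfCardEq htc).symm
  apply oE3_rank hF (fun i => r (e i))
  · intro i
    exact ((hmem _).1 (hrs (e i))).2.1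
  · intro i j hij h0
    obtain ⟨c, hc⟩ := hperp (r (e j)) (r (e i)) ((hmem _).1 (hrs (e j))).1
      ((hmem _).1 (hrs (e j))).2 ((hmem _).1 (hrs (e i))).2 h0
    have hc0 : c ≠ 0 := by
      rintro rfl
      rw [zero_smul] at hc
      exact ((hmem _).1 (hrs (e i))).1 hc
    have h1 : f (r (e i)) = f (r (e j)) := by
      show Submodule.span F {r (e i)} = Submodule.span F {r (e j)}
      rw [hc, Submodule.span_singleton_smul_eq (IsUnit.mk0 c hc0)]
    rw [hrf, hrf] at h1
    exact hij (e.injective (Subtype.ext h1))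

end Cfsg.Agent.Lib.Helper84.MinSU.O
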