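import Mathlib
import Cfsg.Agent.Lib.Helper84.MinSU.oENDof
import Cfsg.Agent.Lib.Helper84.MinSU.oE3
import Cfsg.Agent.Lib.Helper90.MinSU.oE1a
import Cfsg.Agent.Lib.Helper22.MinSU.oE1b
import Cfsg.Agent.Lib.Helper12.MinSU.oE1c

/-! # S2151 farm (helper83), piece [oEND] (helper84): exact form -/

set_option autoImplicit false

namespace Cfsg.Agent.Lib.Helper84.MinSU.O

open Matrix Cfsg.Agent.Lib.Helper13 Cfsg.Agent.Lib.Helper5 Cfsg.Agent.Lib.Helper57.RootSU
  Cfsg.Agent.Lib.Helper83.MinSU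

variable {F : Type*} [Field F] [Fintype F]

/-- [oEND] -/
theorem end5 (hF : Fintype.card F = 2 ^ 2) (K : Subgroup (Cfsg.SU 5 F 2)) (hK : K ≠ ⊤) :
    165 ≤ K.index :=
  end5_of hF (fun K h v a b c => Cfsg.Agent.Lib.Helper90.MinSU.O.bad_stab hF K h v a b c)
    (fun K h v a b c => Cfsg.Agent.Lib.Helper22.MinSU.O.bad_perp hF K h v a b c)
    (fun u a b => Cfsg.Agent.Lib.Helper12.MinSU.O.perp_count hF u a b)
    (fun K a b c => ovoid_false hF K a b c) K hK

end Cfsg.Agent.Lib.Helper84.MinSU.O
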